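import Mathlib
import Cfsg.Prelude.Def_Solvable

/-!
# Groups with a self-centralizing element of prime order
-/

open scoped Pointwise

namespace CfsgLib.SelfCentP

variable {G : Type*} [Group G] [Finite G] {p : ℕ} {x : G}

/-- `pPrimeCore p G` has order prime to `p`. -/
theorem coprime_pPrimeCore (p : ℕ) (G : Type*) [Group G] [Finite G] :
    (Nat.card (Cfsg.pPrimeCore p G)).Coprime p := by
  classical
  let 𝒩 : Set (Subgroup G) := {N : Subgroup G | N.Normal ∧ (Nat.card N).Coprime p}
  have h : ∀ T : Finset (Subgroup G), ↑T ⊆ 𝒩 → T.sup id ∈ 𝒩 := by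
    intro T
    induction T using Finset.induction_on with
    | empty => intro _; exact ⟨by simpa using (inferInstance : (⊥ : Subgroup G).Normal), by simp⟩
    | @insert N T _ ih =>
      intro hT
      rw [Finset.coe_insert, Set.insert_subset_iff] at hT
      obtain ⟨⟨hN, hNc⟩, hTs⟩ := hT
      obtain ⟨hM, hMc⟩ := ih hTs
      haveI := hN
      haveI := hM
      rw [Finset.sup_insert, id_eq]
      refine ⟨Subgroup.sup_normal _ _, ?_⟩
      have h1 : Nat.card ↥(N ⊔ T.sup id) ∣ Nat.card N * Nat.card ↥(T.sup id) := by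
        have h2 : (T.sup id).relIndex (N ⊔ T.sup id) = (T.sup id).relIndex N := Subgroup.relIndex_sup_right _ _
        have h3 := Subgroup.card_mul_index ((T.sup id).subgroupOf (N ⊔ T.sup id))
        rw [Nat.card_congr (Subgroup.subgroupOfEquivOfLe le_sup_right).toEquiv] at h3
        rw [← h3, mul_comm (Nat.card N)]
        refine mul_dvd_mul_left _ ?_
        show (T.sup id).relIndex _ ∣ _
        rw [h2]
        exact Subgroup.index_dvd_card _
      exact Nat.Coprime.coprime_dvd_left h1 (hNc.mul_left hMc)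
  haveI := Fintype.ofFinite (Subgroup G)
  have h2 := h (Finset.univ.filter (· ∈ 𝒩)) (by intro N; simp)
  have e : Cfsg.pPrimeCore p G = (Finset.univ.filter (· ∈ 𝒩)).sup id := by
    refine le_antisymm (sSup_le fun N hN => Finset.le_sup (f := id) (by simpa [𝒩] using hN)) ?_
    exact Finset.sup_le fun N hN => le_sSup (by simpa [𝒩] using hN)
  rw [e]; exact h2.2

theorem le_pPrimeCore {N : Subgroup G} (hN : N.Normal) (h : ¬ p ∣ Nat.card N) (hp : p.Prime) :
    N ≤ Cfsg.pPrimeCore p G :=
  le_sSup ⟨hN, Nat.Coprime.symm ((Nat.Prime.coprime_iff_not_dvd hp).2 h)⟩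

/-- The setting: `x` has prime order `p` and is self-centralizing. -/
structure Setting (p : ℕ) (x : G) : Prop where
  prime : p.Prime
  ord : orderOf x = p
  cent : Subgroup.centralizer ({x} : Set G) = Subgroup.zpowers x

namespace Setting

variable (S : Setting p x)
include S

theorem mem_zpowers_of_commute {g : G} (h : g * x = x * g) : g ∈ Subgroup.zpowers x := by
  rw [← S.cent, Subgroup.mem_centralizer_singleton_iff]
  exact h

theorem card_zpowers : Nat.card (Subgroup.zpowers x) = p := by rw [Nat.card_zpowers, S.ord]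

theorem exists_sylow : ∃ P : Sylow p G, (P : Subgroup G) = Subgroup.zpowers x := by
  haveI := Fact.mk S.prime
  have hP : IsPGroup p (Subgroup.zpowers x) := IsPGroup.of_card (n := 1) (by rw [S.card_zpowers, pow_one])
  obtain ⟨Q, hQ⟩ := hP.exists_le_sylow
  refine ⟨Q, le_antisymm ?_ hQ⟩
  have hx : x ∈ (Q : Subgroup G) := hQ (Subgroup.mem_zpowers x)
  haveI : Nontrivial (Q : Subgroup G) := by
    refine ⟨⟨⟨x, hx⟩, 1, fun h => ?_⟩⟩
    have h1 : x = 1 := congrArg Subtype.val h
    have := S.ord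
    rw [h1, orderOf_one] at this
    exact S.prime.one_lt.ne this
  haveI := Q.2.center_nontrivial
  obtain ⟨⟨z, hz⟩, hz1⟩ := exists_ne (1 : Subgroup.center (Q : Subgroup G))
  rw [Subgroup.mem_center_iff] at hz
  have hzP : (z : G) ∈ Subgroup.zpowers x :=
    S.mem_zpowers_of_commute (congrArg Subtype.val (hz ⟨x, hx⟩)).symm
  have hz1' : (z : G) ≠ 1 := fun h => hz1 (Subtype.ext (Subtype.ext h))
  have hxz : x ∈ Subgroup.zpowers (z : G) := by
    have hle : Subgroup.zpowers (z : G) ≤ Subgroup.zpowers x := Subgroup.zpowers_le.2 hzP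
    have hc : Nat.card (Subgroup.zpowers (z : G)) ∣ p := by
      have := Subgroup.card_dvd_of_le hle
      rwa [S.card_zpowers] at this
    rcases (Nat.dvd_prime S.prime).1 hc with h | h
    · rw [Nat.card_zpowers, orderOf_eq_one_iff] at h; exact absurd h hz1'
    · rw [Subgroup.eq_of_le_of_card_ge hle (by rw [h, S.card_zpowers])]; exact Subgroup.mem_zpowers x
  intro q hq
  refine S.mem_zpowers_of_commute ?_
  obtain ⟨i, hi⟩ := Subgroup.mem_zpowers_iff.1 hxz
  have hc : Commute q (z : G) := congrArg Subtype.val (hz ⟨q, hq⟩)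
  rw [← hi]
  exact (hc.zpow_right i).eq

theorem not_dvd_index : ¬ p ∣ (Subgroup.zpowers x).index := by
  haveI := Fact.mk S.prime
  obtain ⟨P, hP⟩ := S.exists_sylow
  rw [← hP]; exact P.not_dvd_index

theorem dvd_card : p ∣ Nat.card G := by
  have := Subgroup.card_subgroup_dvd_card (Subgroup.zpowers x)
  rwa [S.card_zpowers] at this

theorem not_sq_dvd : ¬ p ^ 2 ∣ Nat.card G := by
  intro h
  rw [← Subgroup.card_mul_index (Subgroup.zpowers x), S.card_zpowers, pow_two] at h
  exact S.not_dvd_index ((Nat.mul_dvd_mul_iff_left S.prime.pos).1 h)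

theorem conj_of_card {H : Subgroup G} (h : Nat.card H = p) :
    ∃ g : G, H = MulAut.conj g • Subgroup.zpowers x := by
  haveI := Fact.mk S.prime
  obtain ⟨P, hP⟩ := S.exists_sylow
  obtain ⟨Q, hQ⟩ := (IsPGroup.of_card (n := 1) (by rw [h, pow_one]) : IsPGroup p H).exists_le_sylow
  obtain ⟨g, hg⟩ := MulAction.exists_smul_eq G P Q
  refine ⟨g, ?_⟩
  have hcard : Nat.card (Q : Subgroup G) = p := by
    rw [Sylow.card_eq_multiplicity, ← P.card_eq_multiplicity, hP, S.card_zpowers]
  have : H = (Q : Subgroup G) := Subgroup.eq_of_le_of_card_ge hQ (by rw [hcard, h])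
  rw [this, ← hg, Sylow.coe_subgroup_smul, hP]

theorem mem_of_normal (N : Subgroup G) [N.Normal] (h : p ∣ Nat.card N) : x ∈ N := by
  haveI := Fact.mk S.prime
  obtain ⟨⟨y, hy⟩, hyo⟩ := exists_prime_orderOf_dvd_card' (G := N) p h
  have hyo' : orderOf y = p := by rw [← hyo, Subgroup.orderOf_mk]
  obtain ⟨g, hg⟩ := S.conj_of_card (H := Subgroup.zpowers y) (by rw [Nat.card_zpowers, hyo'])
  have : g * x * g⁻¹ ∈ N := Subgroup.zpowers_le.2 hy (by
    rw [hg]; exact Subgroup.smul_mem_pointwise_smul _ (MulAut.conj g) _ (Subgroup.mem_zpowers x))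
  have := Subgroup.Normal.conj_mem ‹N.Normal› _ this g⁻¹
  simpa [mul_assoc] using this

theorem mem_of_orderOf (N : Subgroup G) [N.Normal] (h : p ∣ Nat.card N) {y : G} (hy : orderOf y = p) :
    y ∈ N := by
  obtain ⟨g, hg⟩ := S.conj_of_card (H := Subgroup.zpowers y) (by rw [Nat.card_zpowers, hy])
  have hle : Subgroup.zpowers x ≤ N := Subgroup.zpowers_le.2 (S.mem_of_normal N h)
  have hy' := Subgroup.mem_zpowers y
  rw [hg, Subgroup.mem_pointwise_smul_iff_inv_smul_mem, MulAut.smul_def, MulAut.conj_inv_apply] at hy'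
  have := Subgroup.Normal.conj_mem ‹N.Normal› _ (hle hy') g
  simpa [mul_assoc] using this

omit [Finite G] in
theorem dvd_card_of_mem {N : Subgroup G} (h : x ∈ N) : p ∣ Nat.card N :=
  S.ord ▸ Subgroup.orderOf_dvd_natCard N h

/-- The elements of `N_G(⟨x⟩)` have commutators in `⟨x⟩`. -/
theorem commutator_normalizer {a b : G} (ha : a ∈ Subgroup.normalizer (Subgroup.zpowers x : Set G))
    (hb : b ∈ Subgroup.normalizer (Subgroup.zpowers x : Set G)) :
    a * b * a⁻¹ * b⁻¹ ∈ Subgroup.zpowers x := by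
  refine S.mem_zpowers_of_commute ?_
  have hpow : ∀ c ∈ Subgroup.normalizer (Subgroup.zpowers x : Set G), ∃ i : ℤ, c * x * c⁻¹ = x ^ i := by
    intro c hc
    obtain ⟨i, hi⟩ := Subgroup.mem_zpowers_iff.1 ((Subgroup.mem_normalizer_iff.1 hc x).1 (Subgroup.mem_zpowers x))
    exact ⟨i, hi.symm⟩
  obtain ⟨i, hi⟩ := hpow a ha
  obtain ⟨j, hj⟩ := hpow b hb
  have h1 : (a * b) * x * (a * b)⁻¹ = x ^ (i * j) := by
    calc (a * b) * x * (a * b)⁻¹ = a * (b * x * b⁻¹) * a⁻¹ := by group
      _ = (a * x * a⁻¹) ^ j := by rw [hj, conj_zpow]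
      _ = _ := by rw [hi, ← zpow_mul]
  have h2 : (b * a) * x * (b * a)⁻¹ = x ^ (i * j) := by
    calc (b * a) * x * (b * a)⁻¹ = b * (a * x * a⁻¹) * b⁻¹ := by group
      _ = (b * x * b⁻¹) ^ i := by rw [hi, conj_zpow]
      _ = _ := by rw [hj, ← zpow_mul, mul_comm j i]
  have h3 : (a * b * a⁻¹ * b⁻¹) * x ^ (i * j) * (a * b * a⁻¹ * b⁻¹)⁻¹ = x ^ (i * j) := by
    conv_lhs => rw [← h2]
    rw [← h1]; group
  -- `x ^ (i * j)` generates `⟨x⟩`
  have hgen : x ∈ Subgroup.zpowers (x ^ (i * j)) := by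
    have hle : Subgroup.zpowers (x ^ (i * j)) ≤ Subgroup.zpowers x :=
      Subgroup.zpowers_le.2 ((Subgroup.zpowers x).zpow_mem (Subgroup.mem_zpowers x) _)
    have hc : Nat.card (Subgroup.zpowers (x ^ (i * j))) = p := by
      rw [Nat.card_zpowers, ← h1]
      exact ((MulAut.conj (a * b)).orderOf_eq x).trans S.ord
    rw [Subgroup.eq_of_le_of_card_ge hle (by rw [hc, S.card_zpowers])]
    exact Subgroup.mem_zpowers x
  obtain ⟨k, hk⟩ := Subgroup.mem_zpowers_iff.1 hgen
  have h4 : Commute (a * b * a⁻¹ * b⁻¹) (x ^ (i * j)) := mul_inv_eq_iff_eq_mul.1 h3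
  have h5 := h4.zpow_right k
  rw [hk] at h5
  exact h5.eq

/-- The map `s ↦ [s, x]` of a normal `p'`-subgroup is onto. -/
theorem exists_commutator_eq (N : Subgroup G) [N.Normal] (h : ¬ p ∣ Nat.card N) {s : G} (hs : s ∈ N) :
    ∃ u ∈ N, u * x * u⁻¹ * x⁻¹ = s := by
  let f : N → N := fun u => ⟨u.1 * x * u.1⁻¹ * x⁻¹, by
    have h1 := Subgroup.Normal.conj_mem ‹N.Normal› _ (N.inv_mem u.2) x
    have : u.1 * x * u.1⁻¹ * x⁻¹ = u.1 * (x * u.1⁻¹ * x⁻¹) := by group
    rw [this]; exact N.mul_mem u.2 h1⟩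
  have hinj : Function.Injective f := by
    rintro ⟨u, hu⟩ ⟨v, hv⟩ e
    have e' : u * x * u⁻¹ = v * x * v⁻¹ := mul_right_cancel (congrArg Subtype.val e)
    have hm : v⁻¹ * u ∈ Subgroup.zpowers x := S.mem_zpowers_of_commute (by
      calc v⁻¹ * u * x = v⁻¹ * (u * x * u⁻¹) * u := by group
        _ = x * (v⁻¹ * u) := by rw [e']; group)
    have hd1 := Subgroup.orderOf_dvd_natCard _ hm
    rw [S.card_zpowers] at hd1
    rcases (Nat.dvd_prime S.prime).1 hd1 with h1 | h1
    · exact Subtype.ext (inv_mul_eq_one.1 (orderOf_eq_one_iff.1 h1)).symm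
    · exact absurd (h1 ▸ Subgroup.orderOf_dvd_natCard N (N.mul_mem (N.inv_mem hv) hu)) h
  obtain ⟨⟨u, hu⟩, e⟩ := (Finite.injective_iff_surjective.1 hinj) ⟨s, hs⟩
  exact ⟨u, hu, congrArg Subtype.val e⟩

open scoped commutatorElement in
theorem le_commutator_of (N H : Subgroup G) [N.Normal] (h : ¬ p ∣ Nat.card N) (hN : N ≤ H) (hx : x ∈ H) :
    N ≤ ⁅H, H⁆ := by
  intro s hs
  obtain ⟨u, hu, rfl⟩ := S.exists_commutator_eq N h hs
  rw [← commutatorElement_def]
  exact Subgroup.commutator_mem_commutator (hN hu) hx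

theorem le_commutator (N : Subgroup G) [N.Normal] (h : ¬ p ∣ Nat.card N) : N ≤ commutator G := by
  rw [commutator_def]; exact S.le_commutator_of N ⊤ h le_top (Subgroup.mem_top x)

/-- A normal `p'`-subgroup meets the normalizer of `⟨x⟩` trivially. -/
theorem inf_normalizer (N : Subgroup G) [N.Normal] (h : ¬ p ∣ Nat.card N) :
    N ⊓ Subgroup.normalizer (Subgroup.zpowers x : Set G) = ⊥ := by
  rw [eq_bot_iff]
  rintro s ⟨hs, hsn⟩
  have hsn' : s * x * s⁻¹ ∈ Subgroup.zpowers x :=
    (Subgroup.mem_normalizer_iff.1 hsn x).1 (Subgroup.mem_zpowers x)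
  have h1 : s * x * s⁻¹ * x⁻¹ ∈ N ⊓ Subgroup.zpowers x :=
    ⟨by rw [show s * x * s⁻¹ * x⁻¹ = s * (x * s⁻¹ * x⁻¹) by group]
        exact N.mul_mem hs (Subgroup.Normal.conj_mem ‹N.Normal› _ (N.inv_mem hs) x),
      (Subgroup.zpowers x).mul_mem hsn' ((Subgroup.zpowers x).inv_mem (Subgroup.mem_zpowers x))⟩
  have htriv : ∀ y ∈ N ⊓ Subgroup.zpowers x, y = 1 := by
    rintro y ⟨hy1, hy2⟩
    have hd1 := Subgroup.orderOf_dvd_natCard _ hy2
    rw [S.card_zpowers] at hd1
    rcases (Nat.dvd_prime S.prime).1 hd1 with h2 | h2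
    · exact orderOf_eq_one_iff.1 h2
    · exact absurd (h2 ▸ Subgroup.orderOf_dvd_natCard N hy1) h
  have h2 := htriv _ h1
  rw [mul_inv_eq_one] at h2
  exact htriv s ⟨hs, S.mem_zpowers_of_commute (mul_inv_eq_iff_eq_mul.1 h2)⟩

/-- Frattini: a normal subgroup of order divisible by `p` supplements the normalizer. -/
theorem sup_normalizer (N : Subgroup G) [N.Normal] (h : p ∣ Nat.card N) :
    N ⊔ Subgroup.normalizer (Subgroup.zpowers x : Set G) = ⊤ := by
  haveI := Fact.mk S.prime
  rw [eq_top_iff]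
  intro g _
  obtain ⟨P, hP⟩ := S.exists_sylow
  have hxN : Subgroup.zpowers x ≤ N := Subgroup.zpowers_le.2 (S.mem_of_normal N h)
  have hgN : ((g • P : Sylow p G) : Subgroup G) ≤ N := by
    rw [Sylow.coe_subgroup_smul, hP]
    intro y hy
    rw [Subgroup.mem_pointwise_smul_iff_inv_smul_mem, MulAut.smul_def, MulAut.conj_inv_apply] at hy
    have := Subgroup.Normal.conj_mem ‹N.Normal› _ (hxN hy) g
    simpa [mul_assoc] using this
  let P₁ : Sylow p N := P.subtype (hP ▸ hxN)
  let P₂ : Sylow p N := (g • P).subtype hgN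
  obtain ⟨n, hn⟩ := MulAction.exists_smul_eq N P₁ P₂
  have hn' : (n : G) • P = g • P := by
    apply Sylow.ext
    have e := congrArg (fun Q : Sylow p N => (Q : Subgroup N).map N.subtype) hn
    simp only [P₁, P₂, Sylow.smul_subtype] at e
    simp only [Sylow.coe_subtype, Subgroup.map_subgroupOf_eq_of_le hgN] at e
    rw [Subgroup.map_subgroupOf_eq_of_le] at e
    · exact e
    · show (((n : G) • P : Sylow p G) : Subgroup G) ≤ N
      rw [Sylow.coe_subgroup_smul, hP]
      intro y hy
      rw [Subgroup.mem_pointwise_smul_iff_inv_smul_mem, MulAut.smul_def, MulAut.conj_inv_apply] at hy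
      have := Subgroup.Normal.conj_mem ‹N.Normal› _ (hxN hy) (n : G)
      simpa [mul_assoc] using this
  have hmem : (n : G)⁻¹ * g ∈ Subgroup.normalizer (Subgroup.zpowers x : Set G) := by
    rw [← hP]
    refine Sylow.smul_eq_iff_mem_normalizer.1 ?_
    rw [mul_smul, ← hn', inv_smul_smul]
  have := Subgroup.mul_mem_sup (S := N) n.2 hmem
  rwa [mul_inv_cancel_left] at this

theorem commutator_le (N : Subgroup G) [N.Normal] (h : p ∣ Nat.card N) : commutator G ≤ N := by
  have hxN : Subgroup.zpowers x ≤ N := Subgroup.zpowers_le.2 (S.mem_of_normal N h)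
  have hsurj : ∀ q : G ⧸ N, ∃ c ∈ Subgroup.normalizer (Subgroup.zpowers x : Set G), (c : G ⧸ N) = q := by
    intro q
    obtain ⟨g, rfl⟩ := QuotientGroup.mk_surjective q
    have hg : g ∈ N ⊔ Subgroup.normalizer (Subgroup.zpowers x : Set G) := by rw [S.sup_normalizer N h]; trivial
    obtain ⟨n, hn, c, hc, rfl⟩ := Subgroup.mem_sup_of_normal_left.1 hg
    refine ⟨c, hc, ?_⟩
    rw [QuotientGroup.mk_mul, (QuotientGroup.eq_one_iff n).2 hn, one_mul]
  refine Subgroup.Normal.quotient_commutative_iff_commutator_le.1 ⟨⟨fun a b => ?_⟩⟩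
  obtain ⟨c, hc, rfl⟩ := hsurj a
  obtain ⟨d, hd, rfl⟩ := hsurj b
  rw [← commutatorElement_eq_one_iff_mul_comm, commutatorElement_def, ← QuotientGroup.mk_mul, ← QuotientGroup.mk_inv,
    ← QuotientGroup.mk_mul, ← QuotientGroup.mk_inv, ← QuotientGroup.mk_mul, QuotientGroup.eq_one_iff]
  exact hxN (S.commutator_normalizer hc hd)

omit S in
/-- Subgroups of order `p`. -/
theorem card_subgroups_eq (S : Setting p x) : Nat.card {H : Subgroup G // Nat.card H = p}
    = (Subgroup.normalizer (Subgroup.zpowers x : Set G)).index := by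
  haveI := Fact.mk S.prime
  obtain ⟨P, hP⟩ := S.exists_sylow
  have hc : ∀ Q : Sylow p G, Nat.card (Q : Subgroup G) = p := fun Q => by
    rw [Sylow.card_eq_multiplicity, ← P.card_eq_multiplicity, hP, S.card_zpowers]
  rw [← hP]
  refine Eq.trans ?_ P.card_eq_index_normalizer
  refine (Nat.card_eq_of_bijective (fun Q : Sylow p G => (⟨Q.1, hc Q⟩ : {H : Subgroup G // Nat.card H = p})) ⟨?_, ?_⟩).symm
  · intro Q R e; exact Sylow.ext (congrArg Subtype.val e)
  · intro H
    obtain ⟨Q, hQ⟩ := (IsPGroup.of_card (n := 1) (by rw [H.2, pow_one]) : IsPGroup p H.1).exists_le_sylow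
    exact ⟨Q, Subtype.ext (Subgroup.eq_of_le_of_card_ge hQ (by rw [hc, H.2])).symm⟩

/-- `t * [N_G(P) : P] = p - 1`, `t` the number of classes of elements of order `p`. -/
theorem classes_mul : Nat.card {C : ConjClasses G // ∃ g ∈ C.carrier, orderOf g = p}
      * (Subgroup.zpowers x).relIndex (Subgroup.normalizer (Subgroup.zpowers x : Set G)) = p - 1 := by
  classical
  haveI := Fintype.ofFinite G
  haveI := Fact.mk S.prime
  -- each class has `[G : P]` elements
  have hsize : ∀ C : ConjClasses G, (∃ g ∈ C.carrier, orderOf g = p) →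
      Nat.card C.carrier = (Subgroup.zpowers x).index := by
    rintro C ⟨g, hg, hgo⟩
    obtain ⟨a, ha⟩ := S.conj_of_card (H := Subgroup.zpowers g) (by rw [Nat.card_zpowers, hgo])
    have hcentg : Subgroup.centralizer ({g} : Set G) = Subgroup.zpowers g := by
      refine le_antisymm (fun c hc => ?_) (Subgroup.zpowers_le.2 (Subgroup.mem_centralizer_singleton_iff.2 rfl))
      rw [Subgroup.mem_centralizer_singleton_iff] at hc
      have hxg : a * x * a⁻¹ ∈ Subgroup.zpowers g := by
        rw [ha]; exact Subgroup.smul_mem_pointwise_smul _ (MulAut.conj a) _ (Subgroup.mem_zpowers x)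
      obtain ⟨i, hi⟩ := Subgroup.mem_zpowers_iff.1 hxg
      have hcc : c * (a * x * a⁻¹) = (a * x * a⁻¹) * c := by
        rw [← hi]; exact (Commute.zpow_right (hc : Commute c g) i).eq
      have : a⁻¹ * c * a ∈ Subgroup.zpowers x := S.mem_zpowers_of_commute (by
        calc a⁻¹ * c * a * x = a⁻¹ * (c * (a * x * a⁻¹)) * a := by group
          _ = x * (a⁻¹ * c * a) := by rw [hcc]; group)
      rw [ha, Subgroup.mem_pointwise_smul_iff_inv_smul_mem, MulAut.smul_def, MulAut.conj_inv_apply]
      exact this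
    rw [ConjClasses.mem_carrier_iff_mk_eq] at hg
    subst hg
    have h1 : Nat.card (ConjClasses.mk g).carrier = (Subgroup.centralizer ({g} : Set G)).index := by
      rw [← ConjAct.orbit_eq_carrier_conjClasses, Nat.card_coe_set_eq, ← MulAction.index_stabilizer,
        Subgroup.centralizer_eq_comap_stabilizer]
      exact (Subgroup.index_comap_of_surjective _ ConjAct.toConjAct.surjective).symm
    rw [h1, hcentg]
    have e1 := Subgroup.card_mul_index (Subgroup.zpowers g)
    have e2 := Subgroup.card_mul_index (Subgroup.zpowers x)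
    rw [Nat.card_zpowers, hgo] at e1
    rw [S.card_zpowers, ← e1] at e2
    exact (Nat.eq_of_mul_eq_mul_left S.prime.pos e2).symm
  -- count the elements of order `p` in two ways
  have count1 : Nat.card {g : G // orderOf g = p}
      = Nat.card {C : ConjClasses G // ∃ g ∈ C.carrier, orderOf g = p} * (Subgroup.zpowers x).index := by
    let e : {g : G // orderOf g = p} ≃ (C : {C : ConjClasses G // ∃ g ∈ C.carrier, orderOf g = p}) × C.1.carrier :=
      { toFun := fun g => ⟨⟨ConjClasses.mk g.1, g.1, ConjClasses.mem_carrier_mk, g.2⟩, g.1, ConjClasses.mem_carrier_mk⟩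
        invFun := fun q => ⟨q.2.1, by
          obtain ⟨⟨C, g, hg, hgo⟩, y, hy⟩ := q
          have hg' := ConjClasses.mem_carrier_iff_mk_eq.1 hg
          have hy' := ConjClasses.mem_carrier_iff_mk_eq.1 hy
          obtain ⟨c, hc⟩ := isConj_iff.1 (ConjClasses.mk_eq_mk_iff_isConj.1 (hg'.trans hy'.symm))
          show orderOf y = p
          exact ((congrArg orderOf hc.symm).trans ((MulAut.conj c).orderOf_eq g)).trans hgo⟩
        left_inv := fun g => rfl
        right_inv := by
          rintro ⟨⟨C, hC⟩, y, hy⟩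
          obtain rfl := ConjClasses.mem_carrier_iff_mk_eq.1 hy
          rfl }
    rw [Nat.card_congr e, Nat.card_sigma, Finset.sum_congr rfl (fun C _ => hsize C.1 C.2),
      Finset.sum_const, Finset.card_univ, smul_eq_mul, Nat.card_eq_fintype_card]
  have count2 : Nat.card {g : G // orderOf g = p}
      = (Subgroup.normalizer (Subgroup.zpowers x : Set G)).index * (p - 1) := by
    let e : {g : G // orderOf g = p} ≃ (H : {H : Subgroup G // Nat.card H = p}) × {h : H.1 // h ≠ 1} :=
      { toFun := fun g => ⟨⟨Subgroup.zpowers g.1, by rw [Nat.card_zpowers, g.2]⟩, ⟨g.1, Subgroup.mem_zpowers _⟩, fun h => by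
          have h1 : g.1 = 1 := congrArg Subtype.val h
          have := g.2; rw [h1, orderOf_one] at this; exact S.prime.one_lt.ne this⟩
        invFun := fun q => ⟨q.2.1.1, by
          have hd := Subgroup.orderOf_dvd_natCard _ q.2.1.2
          rw [q.1.2] at hd
          rcases (Nat.dvd_prime S.prime).1 hd with h | h
          · exact absurd (Subtype.ext (orderOf_eq_one_iff.1 h)) q.2.2
          · exact h⟩
        left_inv := fun g => rfl
        right_inv := by
          rintro ⟨⟨H, hH⟩, ⟨y, hy⟩, hy1⟩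
          have hd := Subgroup.orderOf_dvd_natCard _ hy
          rw [hH] at hd
          have ho : orderOf y = p := by
            rcases (Nat.dvd_prime S.prime).1 hd with h | h
            · exact absurd (Subtype.ext (orderOf_eq_one_iff.1 h)) hy1
            · exact h
          obtain rfl : Subgroup.zpowers y = H :=
            Subgroup.eq_of_le_of_card_ge (Subgroup.zpowers_le.2 hy) (by rw [Nat.card_zpowers, ho, hH])
          rfl }
    have hc : ∀ H : {H : Subgroup G // Nat.card H = p}, Nat.card {h : H.1 // h ≠ 1} = p - 1 := by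
      intro H
      haveI := Fintype.ofFinite H.1
      rw [Nat.card_eq_fintype_card, Fintype.card_subtype_compl, Fintype.card_subtype_eq, ← Nat.card_eq_fintype_card, H.2]
    rw [Nat.card_congr e, Nat.card_sigma, Finset.sum_congr rfl (fun H _ => hc H),
      Finset.sum_const, Finset.card_univ, smul_eq_mul, ← Nat.card_eq_fintype_card, S.card_subgroups_eq]
  have hrel := Subgroup.relIndex_mul_index (Subgroup.le_normalizer (H := Subgroup.zpowers x))
  rw [count1, ← hrel] at count2
  have hpos : 0 < (Subgroup.normalizer (Subgroup.zpowers x : Set G)).index := Nat.pos_of_ne_zero Subgroup.index_ne_zero_of_finite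
  refine Nat.eq_of_mul_eq_mul_left hpos ?_
  rw [← count2]
  ring

/-- The self-normalizing case. -/
theorem commutator_of_relIndex_one
    (h : (Subgroup.zpowers x).relIndex (Subgroup.normalizer (Subgroup.zpowers x : Set G)) = 1) :
    ¬ p ∣ Nat.card (commutator G) ∧ (commutator G).index = p
      ∧ Subgroup.normalizer (Subgroup.zpowers x : Set G) = Subgroup.zpowers x := by
  have hNP : Subgroup.normalizer (Subgroup.zpowers x : Set G) = Subgroup.zpowers x :=
    le_antisymm (Subgroup.relIndex_eq_one.1 h) Subgroup.le_normalizer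
  haveI := Fact.mk S.prime
  obtain ⟨P, hP⟩ := S.exists_sylow
  have hle : Subgroup.normalizer ((P : Subgroup G) : Set G) ≤ Subgroup.centralizer ((P : Subgroup G) : Set G) := by
    rw [hP, hNP]
    exact Subgroup.le_centralizer _

  let K := (MonoidHom.transferSylow P hle).ker
  have hcompl : K.IsComplement' (P : Subgroup G) := MonoidHom.ker_transferSylow_isComplement' P hle
  have hKP : Nat.card K * p = Nat.card G := by
    rw [← S.card_zpowers, ← hP]; exact hcompl.card_mul
  have hK : ¬ p ∣ Nat.card K := fun hd => S.not_sq_dvd (by rw [← hKP, pow_two]; exact mul_dvd_mul_right hd p)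
  have hidx : K.index = p := by rw [hcompl.symm.index_eq_card, hP, S.card_zpowers]
  have hcle : commutator G ≤ K := by
    refine Subgroup.Normal.quotient_commutative_iff_commutator_le.1 ?_
    haveI : IsCyclic (G ⧸ K) := isCyclic_of_prime_card (p := p) (by rw [← Subgroup.index_eq_card, hidx])
    exact IsCyclic.isMulCommutative
  have heq : commutator G = K := le_antisymm hcle (S.le_commutator K hK)
  exact ⟨heq ▸ hK, heq ▸ hidx, hNP⟩

theorem mem_commutator_of_relIndex_ne_one
    (h : (Subgroup.zpowers x).relIndex (Subgroup.normalizer (Subgroup.zpowers x : Set G)) ≠ 1) :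
    x ∈ commutator G := by
  rw [Ne, Subgroup.relIndex_eq_one] at h
  obtain ⟨g, hg, hgP⟩ := SetLike.not_le_iff_exists.1 h
  have h1 : g * x * g⁻¹ * x⁻¹ ∈ Subgroup.zpowers x :=
    (Subgroup.zpowers x).mul_mem ((Subgroup.mem_normalizer_iff.1 hg x).1 (Subgroup.mem_zpowers x))
      ((Subgroup.zpowers x).inv_mem (Subgroup.mem_zpowers x))
  have h2 : g * x * g⁻¹ * x⁻¹ ∈ commutator G := by
    rw [commutator_def, ← commutatorElement_def]
    exact Subgroup.commutator_mem_commutator (Subgroup.mem_top g) (Subgroup.mem_top x)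
  have hne : g * x * g⁻¹ * x⁻¹ ≠ 1 := fun e =>
    hgP (S.mem_zpowers_of_commute (mul_inv_eq_iff_eq_mul.1 (mul_inv_eq_one.1 e)))
  refine S.mem_of_normal _ ?_
  have hd := Subgroup.orderOf_dvd_natCard _ h1
  rw [S.card_zpowers] at hd
  rcases (Nat.dvd_prime S.prime).1 hd with e | e
  · exact absurd (orderOf_eq_one_iff.1 e) hne
  · exact e ▸ Subgroup.orderOf_dvd_natCard _ h2

end Setting

end CfsgLib.SelfCentP
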